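import Cfsg.Agent.Lib.Helper13.Asch.Defs

set_option autoImplicit false

namespace Cfsg.Agent.Lib.Helper96.Asch

open Cfsg Cfsg.Geo Matrix Cfsg.Agent.Lib.Helper13.Asch
open scoped Kronecker MatrixGroups

variable {ι : Type} [Fintype ι] [DecidableEq ι] {F : Type*} [Field F]

/-- L0b -/
theorem scalar_of_commute {N : Subgroup (GL ι F)} (henv : env N = ⊤) (M : Matrix ι ι F)
    (hM : ∀ x ∈ N, M * (x : Matrix ι ι F) = (x : Matrix ι ι F) * M) : ∃ c : F, M = c • (1 : Matrix ι ι F) := by
  have h1 : env N ≤ Subalgebra.centralizer F {M} := by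
    unfold env
    rw [Algebra.adjoin_le_iff]
    rintro _ ⟨x, hx, rfl⟩
    rw [SetLike.mem_coe, Subalgebra.mem_centralizer_iff]
    intro m hm
    rw [Set.mem_singleton_iff] at hm
    subst hm
    exact hM x hx
  rw [henv] at h1
  have h2 : ∀ a : Matrix ι ι F, M * a = a * M := by
    intro a
    have := Subalgebra.mem_centralizer_iff F |>.1 (h1 (Algebra.mem_top : a ∈ ⊤)) M rfl
    exact this
  obtain ⟨c, hc⟩ := Matrix.mem_range_scalar_of_commute_single (M := M)
    (fun i j _ => (h2 (Matrix.single i j 1)).symm)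
  refine ⟨c, ?_⟩
  rw [← hc, Matrix.smul_one_eq_diagonal]
  rfl

end Cfsg.Agent.Lib.Helper96.Asch
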