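import Cfsg.Agent.Lib.Helper96.Asch.L0b

set_option autoImplicit false

namespace Cfsg.Agent.Lib.Helper96.Asch

open Cfsg Cfsg.Geo Matrix Cfsg.Agent.Lib.Helper13.Asch
open scoped Kronecker MatrixGroups

variable {ι : Type} [Fintype ι] [DecidableEq ι] {F : Type*} [Field F]

/-- A subspace invariant under a group spanning the full matrix algebra is invariant under every
matrix. -/
theorem mulVec_mem_of_env_top {N : Subgroup (GL ι F)} (henv : env N = ⊤)
    (W : Submodule F (ι → F)) (hW : ∀ x ∈ N, ∀ w ∈ W, (x : Matrix ι ι F) *ᵥ w ∈ W)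
    (a : Matrix ι ι F) (w : ι → F) (hw : w ∈ W) : a *ᵥ w ∈ W := by
  have ha : a ∈ env N := by rw [henv]; exact Algebra.mem_top
  unfold env at ha
  induction ha using Algebra.adjoin_induction generalizing w with
  | mem x hx =>
    obtain ⟨g, hg, rfl⟩ := hx
    exact hW g hg w hw
  | algebraMap r =>
    rw [Algebra.algebraMap_eq_smul_one, Matrix.smul_mulVec, Matrix.one_mulVec]
    exact W.smul_mem r hw
  | add x y _ _ hx hy =>
    rw [Matrix.add_mulVec]
    exact W.add_mem (hx w hw) (hy w hw)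
  | mul x y _ _ hx hy =>
    rw [← Matrix.mulVec_mulVec]
    exact hx _ (hy w hw)

/-- A subspace invariant under all matrices is trivial or everything. -/
theorem eq_bot_or_top_of_forall_mulVec (W : Submodule F (ι → F))
    (hW : ∀ (a : Matrix ι ι F), ∀ w ∈ W, a *ᵥ w ∈ W) : W = ⊥ ∨ W = ⊤ := by
  by_cases h : W = ⊥
  · exact Or.inl h
  · right
    obtain ⟨w, hw, hw0⟩ := (Submodule.ne_bot_iff W).1 h
    obtain ⟨i, hi⟩ : ∃ i, w i ≠ 0 := by
      by_contra hcon
      push Not at hcon
      exact hw0 (funext hcon)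
    rw [eq_top_iff]
    intro v _
    have h1 := hW (Matrix.vecMulVec v (Pi.single i (w i)⁻¹)) w hw
    have h2 : Matrix.vecMulVec v (Pi.single i (w i)⁻¹) *ᵥ w = v := by
      rw [Matrix.vecMulVec_mulVec]
      simp [hi]
    rwa [h2] at h1

/-- L0c -/
theorem absIrr_of_env_top {N : Subgroup (GL ι F)} (henv : env N = ⊤) :
    ActsAbsolutelyIrreducibly (matrixSet N) := by
  refine ⟨?_, ?_⟩
  · intro W hW
    apply eq_bot_or_top_of_forall_mulVec
    apply mulVec_mem_of_env_top henv W
    intro x hx w hw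
    have := hW _ ⟨x, hx, rfl⟩ (Submodule.mem_map_of_mem hw)
    simpa [Matrix.toLin'_apply] using this
  · intro M hM
    apply scalar_of_commute henv M
    intro x hx
    exact hM _ ⟨x, hx, rfl⟩

end Cfsg.Agent.Lib.Helper96.Asch
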