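import Cfsg.Agent.Lib.Helper13.Asch.Defs

set_option autoImplicit false

namespace Cfsg.Agent.Lib.Helper96.Asch

open Cfsg Cfsg.Geo Matrix Cfsg.Agent.Lib.Helper13.Asch
open scoped Kronecker MatrixGroups

variable {ι : Type} [Fintype ι] [DecidableEq ι] {F : Type*} [Field F]

/-- L0e -/
theorem env_eq_span (N : Subgroup (GL ι F)) :
    Subalgebra.toSubmodule (env N) = Submodule.span F (matrixSet N) := by
  unfold env
  rw [Algebra.adjoin_eq_span]
  have h : ((N.toSubmonoid.map (Units.coeHom (Matrix ι ι F)) : Submonoid (Matrix ι ι F)) :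
      Set (Matrix ι ι F)) = matrixSet N := rfl
  rw [← h, Submonoid.closure_eq]

end Cfsg.Agent.Lib.Helper96.Asch
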