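import Cfsg.Agent.Lib.Helper96.Asch.L0b
import Cfsg.Agent.Lib.Helper96.Asch.L0e

set_option autoImplicit false

namespace Cfsg.Agent.Lib.Helper96.Asch

open Cfsg Cfsg.Geo Matrix Cfsg.Agent.Lib.Helper13.Asch
open scoped Kronecker MatrixGroups

variable {ι : Type} [Fintype ι] [DecidableEq ι] {F : Type*} [Field F]

/-- the scalar of a scalar matrix -/
noncomputable def ev [Nonempty ι] (g : GL ι F) : F :=
  (g : Matrix ι ι F) (Classical.arbitrary ι) (Classical.arbitrary ι)

theorem ev_spec [Nonempty ι] {g : GL ι F} (hg : g ∈ scalars ι F) :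
    (g : Matrix ι ι F) = ev g • (1 : Matrix ι ι F) := by
  obtain ⟨c, hc⟩ := (mem_scalars_iff g).1 hg
  have : ev g = c := by
    unfold ev
    rw [hc]
    simp
  rw [this, hc]

theorem ev_ne_zero [Nonempty ι] {g : GL ι F} (hg : g ∈ scalars ι F) : ev g ≠ 0 := by
  obtain ⟨c, hc⟩ := (mem_scalars_iff g).1 hg
  have : ev g = c := by
    unfold ev
    rw [hc]
    simp
  rw [this]
  exact c.ne_zero

theorem ev_mul [Nonempty ι] {g h : GL ι F} (hg : g ∈ scalars ι F) (hh : h ∈ scalars ι F) :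
    ev (g * h) = ev g * ev h := by
  have h1 : ((g * h : GL ι F) : Matrix ι ι F) = (ev g * ev h) • (1 : Matrix ι ι F) := by
    rw [Units.val_mul, ev_spec hg, ev_spec hh]
    simp [smul_smul, mul_comm]
  show ((g * h : GL ι F) : Matrix ι ι F) _ _ = _
  rw [h1]
  simp

theorem conj_scalar {s : GL ι F} (hs : s ∈ scalars ι F) (y : GL ι F) : y * s * y⁻¹ = s := by
  obtain ⟨c, hc⟩ := (mem_scalars_iff s).1 hs
  have h : y * s = s * y := by
    apply Units.ext
    rw [Units.val_mul, Units.val_mul, hc]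
    simp
  rw [h, mul_inv_cancel_right]

/-- The character `y ↦ c(y, x)` attached to `x ∈ R`. -/
noncomputable def commChar [Nonempty ι] (R : Subgroup (GL ι F))
    (hcomm : ∀ x ∈ R, ∀ y ∈ R, x * y * x⁻¹ * y⁻¹ ∈ scalars ι F) (x : R) : R →* F where
  toFun y := ev ((y : GL ι F) * (x : GL ι F) * (y : GL ι F)⁻¹ * (x : GL ι F)⁻¹)
  map_one' := by
    simp [ev]
  map_mul' := by
    intro y y'
    have h1 : ((y * y' : R) : GL ι F) * x * ((y * y' : R) : GL ι F)⁻¹ * (x : GL ι F)⁻¹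
        = y * ((y' : GL ι F) * x * (y' : GL ι F)⁻¹ * (x : GL ι F)⁻¹) * (y : GL ι F)⁻¹ *
          ((y : GL ι F) * x * (y : GL ι F)⁻¹ * (x : GL ι F)⁻¹) := by
      rw [Subgroup.coe_mul]
      group
    rw [h1, conj_scalar (hcomm y' y'.2 x x.2), ev_mul (hcomm y' y'.2 x x.2) (hcomm y y.2 x x.2),
      mul_comm]

theorem commChar_spec [Nonempty ι] (R : Subgroup (GL ι F))
    (hcomm : ∀ x ∈ R, ∀ y ∈ R, x * y * x⁻¹ * y⁻¹ ∈ scalars ι F) (x y : R) :
    (((y : GL ι F) * (x : GL ι F) * (y : GL ι F)⁻¹ : GL ι F) : Matrix ι ι F)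
      = commChar R hcomm x y • ((x : GL ι F) : Matrix ι ι F) := by
  have h1 : (y : GL ι F) * x * (y : GL ι F)⁻¹
      = ((y : GL ι F) * x * (y : GL ι F)⁻¹ * (x : GL ι F)⁻¹) * x := by
    group
  rw [h1, Units.val_mul, ev_spec (hcomm y y.2 x x.2), Matrix.smul_mul, Matrix.one_mul]
  rfl

theorem commChar_ne_zero [Nonempty ι] (R : Subgroup (GL ι F))
    (hcomm : ∀ x ∈ R, ∀ y ∈ R, x * y * x⁻¹ * y⁻¹ ∈ scalars ι F) (x y : R) :
    commChar R hcomm x y ≠ 0 := ev_ne_zero (hcomm y y.2 x x.2)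

theorem mem_scalars_of_commute {R : Subgroup (GL ι F)} (henv : env R = ⊤) (g : GL ι F)
    (h : ∀ y ∈ R, g * y = y * g) : g ∈ scalars ι F := by
  obtain ⟨c, hc⟩ := scalar_of_commute henv (g : Matrix ι ι F) (fun y hy => by
    rw [← Units.val_mul, ← Units.val_mul, h y hy])
  rw [mem_scalars_iff]
  by_cases hι : Nonempty ι
  · have hc0 : c ≠ 0 := by
      rintro rfl
      have h1 : (g : Matrix ι ι F) * ((g⁻¹ : GL ι F) : Matrix ι ι F) = 1 := by
        rw [← Units.val_mul]; simp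
      rw [hc, zero_smul, zero_mul] at h1
      exact zero_ne_one h1
    exact ⟨Units.mk0 c hc0, hc⟩
  · refine ⟨1, ?_⟩
    ext i j
    exact absurd ⟨i⟩ hι

/-- equal characters: same coset of the scalars -/
theorem mem_scalars_of_commChar_eq [Nonempty ι] (R : Subgroup (GL ι F))
    (hcomm : ∀ x ∈ R, ∀ y ∈ R, x * y * x⁻¹ * y⁻¹ ∈ scalars ι F) (henv : env R = ⊤) (x x' : R)
    (h : commChar R hcomm x = commChar R hcomm x') : (x : GL ι F)⁻¹ * x' ∈ scalars ι F := by
  apply mem_scalars_of_commute henv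
  intro y hy
  -- the commutators agree
  have h1 : (y * x * y⁻¹ * (x : GL ι F)⁻¹ : GL ι F) = y * x' * y⁻¹ * (x' : GL ι F)⁻¹ := by
    apply Units.ext
    rw [ev_spec (hcomm y hy x x.2), ev_spec (hcomm y hy x' x'.2)]
    have := congrArg (fun f : R →* F => f ⟨y, hy⟩) h
    exact congrArg (· • (1 : Matrix ι ι F)) this
  have e1 : y * x * y⁻¹ = (y * x * y⁻¹ * (x : GL ι F)⁻¹) * x := by group
  have e2 : y * x' * y⁻¹ = (y * x * y⁻¹ * (x : GL ι F)⁻¹) * x' := by rw [h1]; group
  calc (x : GL ι F)⁻¹ * x' * y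
      = ((y * x * y⁻¹ * (x : GL ι F)⁻¹) * x)⁻¹ * ((y * x * y⁻¹ * (x : GL ι F)⁻¹) * x') * y := by
        group
    _ = (y * x * y⁻¹)⁻¹ * (y * x' * y⁻¹) * y := by rw [← e1, ← e2]
    _ = y * ((x : GL ι F)⁻¹ * x') := by group

/-- L10 -/
theorem card_eq_sq_mul [Finite F] [Nonempty ι] (R : Subgroup (GL ι F))
    (hcomm : ∀ x ∈ R, ∀ y ∈ R, x * y * x⁻¹ * y⁻¹ ∈ scalars ι F) (henv : env R = ⊤) :
    Nat.card R = Fintype.card ι ^ 2 * Nat.card (R ⊓ scalars ι F : Subgroup (GL ι F)) := by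
  classical
  set Z' : Subgroup R := (scalars ι F).subgroupOf R with hZ'
  let rep : R ⧸ Z' → R := fun q => Quotient.out q
  have hrep : ∀ q, ((rep q : R) : R ⧸ Z') = q := fun q => QuotientGroup.out_eq' q
  have hχinj : Function.Injective (fun q : R ⧸ Z' => commChar R hcomm (rep q)) := by
    intro q q' h
    have h1 := mem_scalars_of_commChar_eq R hcomm henv (rep q) (rep q') h
    have h2 : (rep q)⁻¹ * rep q' ∈ Z' := by
      rw [hZ', Subgroup.mem_subgroupOf]
      exact h1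
    rw [← hrep q, ← hrep q']
    exact QuotientGroup.eq.2 h2
  have hD : LinearIndependent F (fun q : R ⧸ Z' => (commChar R hcomm (rep q) : R → F)) :=
    (linearIndependent_monoidHom R F).comp _ hχinj
  have hLI : LinearIndependent F (fun q : R ⧸ Z' => (((rep q : R) : GL ι F) : Matrix ι ι F)) := by
    rw [linearIndependent_iff']
    intro s g hg i hi
    have hkl : ∀ k l, g i * (((rep i : R) : GL ι F) : Matrix ι ι F) k l = 0 := by
      intro k l
      refine linearIndependent_iff'.1 hD s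
        (fun q => g q * (((rep q : R) : GL ι F) : Matrix ι ι F) k l) ?_ i hi
      funext y
      have h1 := congrArg (fun m : Matrix ι ι F => ((y : GL ι F) : Matrix ι ι F) * m *
        (((y : GL ι F)⁻¹ : GL ι F) : Matrix ι ι F)) hg
      simp only [Finset.mul_sum, Finset.sum_mul, Matrix.mul_smul, Matrix.smul_mul, mul_zero,
        zero_mul] at h1
      have h2 : ∀ q, ((y : GL ι F) : Matrix ι ι F) * (((rep q : R) : GL ι F) : Matrix ι ι F) *
          (((y : GL ι F)⁻¹ : GL ι F) : Matrix ι ι F)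
          = commChar R hcomm (rep q) y • (((rep q : R) : GL ι F) : Matrix ι ι F) := by
        intro q
        rw [← commChar_spec, Units.val_mul, Units.val_mul]
      simp only [h2] at h1
      have h3 := congrFun (congrFun h1 k) l
      simp only [Matrix.sum_apply, Matrix.smul_apply, smul_eq_mul, Matrix.zero_apply] at h3
      simp only [Finset.sum_apply, Pi.smul_apply, smul_eq_mul, Pi.zero_apply]
      rw [← h3]
      apply Finset.sum_congr rfl
      intro q _
      ring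
    by_contra hgi
    have h0 : (((rep i : R) : GL ι F) : Matrix ι ι F) = 0 := by
      ext k l
      rcases mul_eq_zero.1 (hkl k l) with h | h
      · exact absurd h hgi
      · exact h
    have h1 : (((rep i : R) : GL ι F) : Matrix ι ι F) *
        ((((rep i : R) : GL ι F)⁻¹ : GL ι F) : Matrix ι ι F) = 1 := by
      rw [← Units.val_mul]; simp
    rw [h0, zero_mul] at h1
    exact zero_ne_one h1
  have hspan : ⊤ ≤ Submodule.span F
      (Set.range (fun q : R ⧸ Z' => (((rep q : R) : GL ι F) : Matrix ι ι F))) := by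
    have h1 : Submodule.span F (matrixSet R) = ⊤ := by
      rw [← env_eq_span, henv]
      rfl
    rw [← h1, Submodule.span_le]
    rintro _ ⟨x, hx, rfl⟩
    have h2 : (rep ((⟨x, hx⟩ : R) : R ⧸ Z'))⁻¹ * ⟨x, hx⟩ ∈ Z' := QuotientGroup.eq.1 (hrep _)
    have h2' : (((rep ((⟨x, hx⟩ : R) : R ⧸ Z'))⁻¹ * ⟨x, hx⟩ : R) : GL ι F) ∈ scalars ι F :=
      Subgroup.mem_subgroupOf.1 h2
    have h3 := ev_spec h2'
    set r := rep ((⟨x, hx⟩ : R) : R ⧸ Z') with hr
    have h4 : (x : Matrix ι ι F) = ev ((r : GL ι F)⁻¹ * x) • ((r : GL ι F) : Matrix ι ι F) := by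
      have h5 : x = (r : GL ι F) * ((r : GL ι F)⁻¹ * x) := by group
      have h6 : (((r : GL ι F)⁻¹ * x : GL ι F) : Matrix ι ι F)
          = ev ((r : GL ι F)⁻¹ * x) • (1 : Matrix ι ι F) := h3
      conv_lhs => rw [h5, Units.val_mul, h6]
      simp
    show (x : Matrix ι ι F) ∈ Submodule.span F _
    rw [h4]
    exact Submodule.smul_mem _ _ (Submodule.subset_span ⟨_, rfl⟩)
  have hfin : Finite (GL ι F) := inferInstance
  have : Fintype (R ⧸ Z') := Fintype.ofFinite _
  have hcardQ : Nat.card (R ⧸ Z') = Fintype.card ι ^ 2 := by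
    have h1 := Module.finrank_eq_card_basis (Module.Basis.mk hLI hspan)
    rw [Module.finrank_matrix, Module.finrank_self, mul_one] at h1
    rw [Nat.card_eq_fintype_card, ← h1, sq]
  rw [Subgroup.card_eq_card_quotient_mul_card_subgroup Z', hcardQ]
  congr 1
  rw [hZ', ← Subgroup.inf_subgroupOf_left]
  exact Nat.card_congr (Subgroup.subgroupOfEquivOfLe inf_le_left).toEquiv

end Cfsg.Agent.Lib.Helper96.Asch
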