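import Cfsg.Agent.Lib.Helper96.Asch.L10
import Cfsg.Agent.Lib.Helper96.Asch.L0c

set_option autoImplicit false

namespace Cfsg.Agent.Lib.Helper96.Asch

open Cfsg Cfsg.Geo Matrix Cfsg.Agent.Lib.Helper13.Asch
open scoped Kronecker MatrixGroups

variable {ι : Type} [Fintype ι] [DecidableEq ι] {F : Type*} [Field F]

/-- a non-scalar element of `R` has trace zero -/
theorem trace_eq_zero_of_not_scalar [Nonempty ι] (R : Subgroup (GL ι F))
    (hcomm : ∀ x ∈ R, ∀ y ∈ R, x * y * x⁻¹ * y⁻¹ ∈ scalars ι F) (henv : env R = ⊤) (x : R)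
    (hx : (x : GL ι F) ∉ scalars ι F) : Matrix.trace ((x : GL ι F) : Matrix ι ι F) = 0 := by
  by_contra htr
  apply hx
  apply mem_scalars_of_commute henv
  intro y hy
  have h1 := commChar_spec R hcomm x ⟨y, hy⟩
  have h2 := congrArg Matrix.trace h1
  rw [Matrix.trace_smul, Units.val_mul, Units.val_mul, Matrix.trace_mul_cycle, ← Units.val_mul,
    inv_mul_cancel, Units.val_one, Matrix.one_mul] at h2
  have h3 : commChar R hcomm x ⟨y, hy⟩ = 1 := by
    have h4 : (commChar R hcomm x ⟨y, hy⟩ - 1) * Matrix.trace ((x : GL ι F) : Matrix ι ι F) = 0 := by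
      rw [sub_mul, one_mul, ← smul_eq_mul, ← h2, sub_self]
    rcases mul_eq_zero.1 h4 with h | h
    · exact sub_eq_zero.1 h
    · exact absurd h htr
  rw [h3, one_smul] at h1
  have h5 : y * (x : GL ι F) * y⁻¹ = x := Units.ext h1
  calc (x : GL ι F) * y = (y * (x : GL ι F) * y⁻¹) * y := by rw [h5]
    _ = y * x := by group

theorem entry_formula (A B : Matrix ι ι F) (i j k l : ι) :
    (Aᵀ * Matrix.single i j (1 : F) * B) k l = A i k * B j l := by
  rw [Matrix.mul_assoc, Matrix.mul_apply]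
  simp only [Matrix.transpose_apply]
  rw [Finset.sum_eq_single i]
  · rw [Matrix.mul_apply, Finset.sum_eq_single j]
    · simp
    · intro b _ hb
      simp [Matrix.single_apply, hb.symm]
    · intro h; exact absurd (Finset.mem_univ _) h
  · intro b _ hb
    rw [Matrix.mul_apply]
    simp [Matrix.single_apply, hb.symm]
  · intro h; exact absurd (Finset.mem_univ _) h

/-- L12a -/
theorem exists_invariant_gram [Finite F] (R : Subgroup (GL ι F))
    (hcomm : ∀ x ∈ R, ∀ y ∈ R, x * y * x⁻¹ * y⁻¹ ∈ scalars ι F) (henv : env R = ⊤)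
    (hchar : (Nat.card R : F) ≠ 0) (σ : F →+* F)
    (hσ : ∀ c : Fˣ, (∃ x ∈ R, (x : Matrix ι ι F) = (c : F) • 1) → (c : F) * σ c = 1) :
    ∃ G : Matrix ι ι F, IsUnit G.det ∧
      ∀ x ∈ R, (x : Matrix ι ι F)ᵀ * G * (x : Matrix ι ι F).map σ = G := by
  classical
  by_cases hι : Nonempty ι
  swap
  · have : IsEmpty ι := not_nonempty_iff.1 hι
    refine ⟨1, by simp, ?_⟩
    intro x _
    ext i
    exact absurd ⟨i⟩ hι
  have hfin : Finite (GL ι F) := inferInstance
  have : Fintype R := Fintype.ofFinite _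
  let L : Matrix ι ι F → Matrix ι ι F := fun M =>
    ∑ x : R, ((x : GL ι F) : Matrix ι ι F)ᵀ * M * ((x : GL ι F) : Matrix ι ι F).map σ
  have hL : ∀ M, ∀ y ∈ R, (y : Matrix ι ι F)ᵀ * L M * (y : Matrix ι ι F).map σ = L M := by
    intro M y hy
    show (y : Matrix ι ι F)ᵀ * (∑ x : R, _) * (y : Matrix ι ι F).map σ = ∑ x : R, _
    rw [Finset.mul_sum, Finset.sum_mul]
    refine Fintype.sum_equiv (Equiv.mulRight (⟨y, hy⟩ : R)) _ _ ?_
    intro x
    simp only [Equiv.coe_mulRight, Subgroup.coe_mul, Units.val_mul, Matrix.transpose_mul,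
      Matrix.map_mul, mul_assoc]
  -- the trace sum
  have hsum : ∑ x : R, Matrix.trace ((x : GL ι F) : Matrix ι ι F) *
      σ (Matrix.trace ((x : GL ι F) : Matrix ι ι F)) = (Nat.card R : F) := by
    have h1 : ∀ x : R, Matrix.trace ((x : GL ι F) : Matrix ι ι F) *
        σ (Matrix.trace ((x : GL ι F) : Matrix ι ι F))
        = if x ∈ (scalars ι F).subgroupOf R then ((Fintype.card ι : F)) ^ 2 else 0 := by
      intro x
      split_ifs with hx
      · obtain ⟨c, hc⟩ := (mem_scalars_iff _).1 (Subgroup.mem_subgroupOf.1 hx)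
        have h2 := hσ c ⟨x, x.2, hc⟩
        rw [hc, Matrix.trace_smul, Matrix.trace_one, smul_eq_mul, map_mul, map_natCast]
        calc (c : F) * (Fintype.card ι : F) * (σ c * (Fintype.card ι : F))
            = ((c : F) * σ c) * (Fintype.card ι : F) ^ 2 := by ring
          _ = (Fintype.card ι : F) ^ 2 := by rw [h2, one_mul]
      · rw [trace_eq_zero_of_not_scalar R hcomm henv x
          (fun h => hx (Subgroup.mem_subgroupOf.2 h)), zero_mul]
    rw [Finset.sum_congr rfl (fun x _ => h1 x), Finset.sum_ite, Finset.sum_const_zero, add_zero,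
      Finset.sum_const, card_eq_sq_mul R hcomm henv, nsmul_eq_mul]
    have h3 : (Finset.univ.filter (fun x : R => x ∈ (scalars ι F).subgroupOf R)).card
        = Nat.card (R ⊓ scalars ι F : Subgroup (GL ι F)) := by
      rw [← Fintype.card_subtype, ← Nat.card_eq_fintype_card]
      have h4 : (scalars ι F).subgroupOf R = (R ⊓ scalars ι F).subgroupOf R :=
        (Subgroup.inf_subgroupOf_left _ _).symm
      rw [h4]
      exact Nat.card_congr (Subgroup.subgroupOfEquivOfLe inf_le_left).toEquiv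
    rw [h3]
    push_cast
    ring
  obtain ⟨i, j, hij⟩ : ∃ i j, L (Matrix.single i j 1) ≠ 0 := by
    by_contra hcon
    push Not at hcon
    apply hchar
    rw [← hsum]
    have h1 : ∀ i j, ∑ x : R, ((x : GL ι F) : Matrix ι ι F) i i *
        σ (((x : GL ι F) : Matrix ι ι F) j j) = 0 := by
      intro i j
      have h2 := congrFun (congrFun (hcon i j) i) j
      simp only [L, Matrix.sum_apply, entry_formula, Matrix.map_apply, Matrix.zero_apply] at h2
      exact h2
    simp only [Matrix.trace, Matrix.diag_apply, map_sum, Finset.sum_mul_sum]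
    rw [Finset.sum_comm]
    apply Finset.sum_eq_zero
    intro i _
    rw [Finset.sum_comm]
    apply Finset.sum_eq_zero
    intro j _
    exact h1 i j
  refine ⟨L (Matrix.single i j 1), ?_, hL _⟩
  set G := L (Matrix.single i j 1) with hG
  have hGinv := hL (Matrix.single i j 1)
  rw [← hG] at hGinv
  have hW := (absIrr_of_env_top henv).1 (LinearMap.ker (Matrix.toLin' Gᵀ)) (by
    rintro _ ⟨x, hx, rfl⟩ _ ⟨u, hu, rfl⟩
    rw [SetLike.mem_coe, LinearMap.mem_ker, Matrix.toLin'_apply] at hu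
    rw [LinearMap.mem_ker, Matrix.toLin'_apply, Matrix.toLin'_apply]
    have h1 := hGinv x⁻¹ (R.inv_mem hx)
    have h2 := congrArg Matrix.transpose h1
    rw [Matrix.transpose_mul, Matrix.transpose_mul, Matrix.transpose_transpose] at h2
    have h3 : ((x⁻¹ : GL ι F) : Matrix ι ι F) * (x : Matrix ι ι F) = 1 := by
      rw [← Units.val_mul]; simp
    rw [← h2, Matrix.mulVec_mulVec, mul_assoc, mul_assoc, h3, mul_one, ← Matrix.mulVec_mulVec, hu,
      Matrix.mulVec_zero])
  rw [isUnit_iff_ne_zero, ← Matrix.det_transpose]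
  intro hdet
  obtain ⟨v, hv0, hv⟩ := Matrix.exists_mulVec_eq_zero_iff.2 hdet
  have hvW : v ∈ LinearMap.ker (Matrix.toLin' Gᵀ) := by
    rw [LinearMap.mem_ker, Matrix.toLin'_apply]; exact hv
  rcases hW with h | h
  · rw [h, Submodule.mem_bot] at hvW
    exact hv0 hvW
  · apply hij
    have h1 : Matrix.toLin' Gᵀ = 0 := LinearMap.ker_eq_top.1 h
    have h2 : Gᵀ = 0 := by
      apply Matrix.toLin'.injective
      rw [h1, map_zero]
    rw [← Matrix.transpose_transpose G, h2, Matrix.transpose_zero]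

end Cfsg.Agent.Lib.Helper96.Asch
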